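import Cfsg.Agent.H917.Conj.Basic
import Cfsg.Agent.SmallSimple.S1000.Order25920
import Cfsg.Agent.LieClassical.FieldTransfer

/-!
# The row `PSp_4(3)` of S4792 (tool F: `2^4 : 5`)
-/

set_option autoImplicit false

open Cfsg

namespace Cfsg.Agent.H430.Conj

open Cfsg.Agent.SmallSimple.S1000
open Cfsg.Agent.Lib.FieldThree (F3)

theorem row_of_order_25920 {G : Type*} [Group G] [Finite G] [IsSimpleGroup G] (hG : Nat.card G = 25920)
    (Q : Subgroup G) (hQ2 : IsPGroup 2 Q) (hne : Q ≠ ⊥)
    (hns : ¬ Group.IsSolvable (Subgroup.normalizer (Q : Set G))) : Row G := by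
  obtain ⟨x, hx, hxN, h16, hab, -⟩ := Order25920Local.local_structure hG Q hQ2 hne hns
  have hC := Order25920Local.self_cent hG hx
  refine row_of_frob x Q ⟨⟨fun a b => Subtype.ext ((hab a a.2).1 b b.2)⟩⟩ hne ?_ ?_
  · intro c hc a ha
    rw [hC] at hc
    have hc' : c ∈ Subgroup.normalizer (Q : Set G) := (Subgroup.zpowers_le.2 hxN) hc
    exact (Subgroup.mem_normalizer_iff.1 hc' a).1 ha
  · intro c hc a ha hca
    by_cases hc1 : c = 1
    · exact Or.inl hc1
    right
    rw [hC] at hc
    have hp : Fact (Nat.Prime 5) := ⟨by norm_num⟩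
    have hcard : Nat.card (Subgroup.zpowers x) = 5 := by rw [Nat.card_zpowers, hx]
    have hco : orderOf c = 5 := by
      have h1 : orderOf c ∣ 5 := by
        have := Subgroup.orderOf_dvd_natCard (Subgroup.zpowers x) hc
        rwa [hcard] at this
      rcases (Nat.dvd_prime hp.out).1 h1 with h | h
      · exact absurd (orderOf_eq_one_iff.1 h) hc1
      · exact h
    have hC' := Order25920Local.self_cent hG hco
    have ha' : a ∈ Subgroup.centralizer ({c} : Set G) := by
      rw [Subgroup.mem_centralizer_singleton_iff]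
      exact hca.symm
    rw [hC'] at ha'
    have h1 : orderOf a ∣ 5 := by
      have := Subgroup.orderOf_dvd_natCard (Subgroup.zpowers c) ha'
      rwa [Nat.card_zpowers, hco] at this
    have h2 : orderOf a ∣ 2 := orderOf_dvd_of_pow_eq_one (by rw [pow_two]; exact (hab a ha).2)
    have h3 : orderOf a ∣ 1 := Nat.dvd_gcd h1 h2
    exact orderOf_eq_one_iff.1 (Nat.dvd_one.1 h3)

theorem row_PSp43_F3 : Row (PSp 2 F3) := by
  have hs : IsSimpleGroup (Cfsg.PSp 2 F3) := Cfsg.Agent.S0270.result 2 le_rfl (fun _ => le_rfl)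
  have hf : Finite (PSp 2 F3) := inferInstance
  exact row_of_order_25920 (Cfsg.Agent.S0822.card_PSp) Order25920PSp.Q0
    Order25920PSp.Q0_two Order25920PSp.Q0_ne_bot Order25920PSp.not_solvable

theorem row_PSp43 {F : Type*} [Field F] [Fintype F] (hF : Fintype.card F = 3) : Row (PSp 2 F) := by
  have e : F3 ≃+* F := (Cfsg.Agent.Lib.FieldThree.equivOfCard hF).symm
  exact Row.of_equiv (Cfsg.Agent.LieClassical.FieldTransfer.pspCongr 2 e) row_PSp43_F3

end Cfsg.Agent.H430.Conj
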